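import Cfsg.Agent.Lib.Helper11.HeK.Top

set_option autoImplicit false
set_option maxRecDepth 100000

namespace Cfsg.Agent.Lib.Helper11.HeK

set_option maxHeartbeats 0
theorem b16 : allR (guardB 1389 (blk fc sc rt.get INV isH)) 6 1024 = true := by decide +kernel
theorem b17 : allR (guardB 1389 (blk fc sc rt.get INV isH)) 6 1088 = true := by decide +kernel
theorem b18 : allR (guardB 1389 (blk fc sc rt.get INV isH)) 6 1152 = true := by decide +kernel
theorem b19 : allR (guardB 1389 (blk fc sc rt.get INV isH)) 6 1216 = true := by decide +kernel
theorem b20 : allR (guardB 1389 (blk fc sc rt.get INV isH)) 6 1280 = true := by decide +kernel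
theorem b21 : allR (guardB 1389 (blk fc sc rt.get INV isH)) 6 1344 = true := by decide +kernel
theorem b22 : allR (guardB 1389 (blk fc sc rt.get INV isH)) 6 1408 = true := by decide +kernel
theorem b23 : allR (guardB 1389 (blk fc sc rt.get INV isH)) 6 1472 = true := by decide +kernel

end Cfsg.Agent.Lib.Helper11.HeK
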