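import Cfsg.Agent.Lib.Helper11.HeK.Top

set_option autoImplicit false
set_option maxRecDepth 100000

namespace Cfsg.Agent.Lib.Helper11.HeK

set_option maxHeartbeats 0
theorem b24 : allR (guardB 1389 (blk fc sc rt.get INV isH)) 6 1536 = true := by decide +kernel
theorem b25 : allR (guardB 1389 (blk fc sc rt.get INV isH)) 6 1600 = true := by decide +kernel
theorem b26 : allR (guardB 1389 (blk fc sc rt.get INV isH)) 6 1664 = true := by decide +kernel
theorem b27 : allR (guardB 1389 (blk fc sc rt.get INV isH)) 6 1728 = true := by decide +kernel
theorem b28 : allR (guardB 1389 (blk fc sc rt.get INV isH)) 6 1792 = true := by decide +kernel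
theorem b29 : allR (guardB 1389 (blk fc sc rt.get INV isH)) 6 1856 = true := by decide +kernel
theorem b30 : allR (guardB 1389 (blk fc sc rt.get INV isH)) 6 1920 = true := by decide +kernel
theorem b31 : allR (guardB 1389 (blk fc sc rt.get INV isH)) 6 1984 = true := by decide +kernel

end Cfsg.Agent.Lib.Helper11.HeK
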