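import Cfsg.Agent.Lib.Helper11.HeK.K0
import Cfsg.Agent.Lib.Helper11.HeK.K1
import Cfsg.Agent.Lib.Helper11.HeK.K2
import Cfsg.Agent.Lib.Helper11.HeK.K3
import Cfsg.Agent.Lib.Helper11.HeK.K4
import Cfsg.Agent.Lib.Helper11.HeK.K5

set_option autoImplicit false
set_option maxRecDepth 100000

namespace Cfsg.Agent.Lib.Helper11.HeK

theorem chkAll : ∀ j < 1389, blk fc sc rt.get INV isH j = true :=
  guardB_spec (D := 11) (allR_join (allR_join (allR_join (allR_join (allR_join b0 b1 (by norm_num)) (allR_join b2 b3 (by norm_num)) (by norm_num)) (allR_join (allR_join b4 b5 (by norm_num)) (allR_join b6 b7 (by norm_num)) (by norm_num)) (by norm_num)) (allR_join (allR_join (allR_join b8 b9 (by norm_num)) (allR_join b10 b11 (by norm_num)) (by norm_num)) (allR_join (allR_join b12 b13 (by norm_num)) (allR_join b14 b15 (by norm_num)) (by norm_num)) (by norm_num)) (by norm_num)) (allR_join (allR_join (allR_join (allR_join b16 b17 (by norm_num)) (allR_join b18 b19 (by norm_num)) (by norm_num)) (allR_join (allR_join b20 b21 (by norm_num)) (allR_join b22 b23 (by norm_num)) (by norm_num))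 (by norm_num)) (allR_join (allR_join (allR_join b24 b25 (by norm_num)) (allR_join b26 b27 (by norm_num)) (by norm_num)) (allR_join (allR_join b28 b29 (by norm_num)) (allR_join b30 b31 (by norm_num)) (by norm_num)) (by norm_num)) (by norm_num)) (by norm_num)) (by norm_num)

theorem clAll : ∀ jb < 1562, cblk fc nc cc (256 * 1389) 49980 139984046386112763159840142535527767382602843577165595931249318810236991948760059086304843329475444736 gens jb = true :=
  guardB_spec (D := 11) (allR_join (allR_join (allR_join (allR_join c0 c1 (by norm_num)) (allR_join c2 c3 (by norm_num)) (by norm_num)) (allR_join (allR_join c4 c5 (by norm_num)) (allR_join c6 c7 (by norm_num)) (by norm_num)) (by norm_num)) (allR_join (allR_join (allR_join c8 c9 (by norm_num)) (allR_join c10 c11 (by norm_num)) (by norm_num)) (allR_join (allR_join c12 c13 (by norm_num)) (allR_join c14 c15 (by norm_num)) (by norm_num)) (by norm_num)) (by norm_num)) (by norm_num)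

theorem hN0 : getN nc 0 = 0 := by decide +kernel


end Cfsg.Agent.Lib.Helper11.HeK
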