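import Cfsg.Agent.Lib.Helper11.HeK.Top

set_option autoImplicit false
set_option maxRecDepth 100000

namespace Cfsg.Agent.Lib.Helper11.HeK

set_option maxHeartbeats 0
theorem b0 : allR (guardB 1389 (blk fc sc rt.get INV isH)) 6 0 = true := by decide +kernel
theorem b1 : allR (guardB 1389 (blk fc sc rt.get INV isH)) 6 64 = true := by decide +kernel
theorem b2 : allR (guardB 1389 (blk fc sc rt.get INV isH)) 6 128 = true := by decide +kernel
theorem b3 : allR (guardB 1389 (blk fc sc rt.get INV isH)) 6 192 = true := by decide +kernel
theorem b4 : allR (guardB 1389 (blk fc sc rt.get INV isH)) 6 256 = true := by decide +kernel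
theorem b5 : allR (guardB 1389 (blk fc sc rt.get INV isH)) 6 320 = true := by decide +kernel
theorem b6 : allR (guardB 1389 (blk fc sc rt.get INV isH)) 6 384 = true := by decide +kernel
theorem b7 : allR (guardB 1389 (blk fc sc rt.get INV isH)) 6 448 = true := by decide +kernel

end Cfsg.Agent.Lib.Helper11.HeK
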